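import Mathlib

/-!
# A central extension by a subgroup of a quotient
-/

set_option autoImplicit false

namespace Cfsg.Agent.Lib.Schur.ON45.Abs

open Subgroup

/-- A simple group whose order is not a prime has trivial centre and is perfect. -/
theorem center_bot_and_perfect {Γ : Type*} [Group Γ] [Finite Γ] [IsSimpleGroup Γ]
    (hnp : ¬ (Nat.card Γ).Prime) : center Γ = ⊥ ∧ commutator Γ = ⊤ := by
  have hc : center Γ ≠ ⊤ := by
    intro h
    let _ : CommGroup Γ := Group.commGroupOfCenterEqTop h
    exact hnp (IsSimpleGroup.prime_card (α := Γ))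
  have h1 : center Γ = ⊥ :=
    (IsSimpleGroup.eq_bot_or_eq_top_of_normal (center Γ) inferInstance).resolve_right hc
  refine ⟨h1, ?_⟩
  refine (IsSimpleGroup.eq_bot_or_eq_top_of_normal (commutator Γ) inferInstance).resolve_left ?_
  intro h
  exact hc ((commutator_eq_bot_iff_center_eq_top Γ).1 h)

/-- The subgroup of a central extension over a subgroup of the quotient. -/
theorem exists_section {S Q Γ : Type*} [Group S] [Group Q] [Group Γ] (π : S →* Q) (ψ : Γ →* Q)
    (hψ : Function.Injective ψ) (hr : ψ.range ≤ π.range) (hcen : center Γ = ⊥)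
    (hker : π.ker ≤ center S) {k : ℕ} (hcard : Nat.card π.ker = k) :
    ∃ H : Subgroup S, Nat.card (center H) = k ∧ Nonempty (H ⧸ center H ≃* Γ) := by
  classical
  let H : Subgroup S := ψ.range.comap π
  have hH : ∀ x : H, ∃ g : Γ, ψ g = π x := fun x => x.2
  let e : Γ ≃* ψ.range := MonoidHom.ofInjective hψ
  -- the map onto `Γ`
  let f : H →* ψ.range :=
    { toFun := fun x => ⟨π x, x.2⟩
      map_one' := Subtype.ext (map_one π)
      map_mul' := fun x y => Subtype.ext (map_mul π _ _) }
  let φ : H →* Γ := e.symm.toMonoidHom.comp f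
  have hfsurj : Function.Surjective f := by
    rintro ⟨q, g, rfl⟩
    obtain ⟨x, hx⟩ := hr ⟨g, rfl⟩
    refine ⟨⟨x, ?_⟩, Subtype.ext hx⟩
    show π x ∈ ψ.range
    rw [hx]
    exact ⟨g, rfl⟩
  have hφsurj : Function.Surjective φ := e.symm.surjective.comp hfsurj
  have hφk : ∀ x : H, x ∈ φ.ker ↔ (x : S) ∈ π.ker := by
    intro x
    simp only [MonoidHom.mem_ker, φ, MonoidHom.comp_apply]
    constructor
    · intro h
      have h1 : f x = 1 := by
        have := congrArg e h
        simpa using this
      exact congrArg Subtype.val h1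
    · intro h
      have h1 : f x = 1 := Subtype.ext h
      rw [h1]
      simp
  have hk : φ.ker = center H := by
    apply le_antisymm
    · intro x hx
      rw [mem_center_iff]
      intro y
      exact Subtype.ext (mem_center_iff.1 (hker ((hφk x).1 hx)) y)
    · intro x hx
      rw [mem_center_iff] at hx
      have h1 : φ x ∈ center Γ := by
        rw [mem_center_iff]
        intro g
        obtain ⟨y, rfl⟩ := hφsurj g
        rw [← map_mul, hx y, map_mul]
      rw [hcen, mem_bot] at h1
      exact h1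
  refine ⟨H, ?_, ?_⟩
  · rw [← hk, ← hcard]
    refine Nat.card_congr ⟨fun x => ⟨(x.1 : S), (hφk x.1).1 x.2⟩, fun y => ⟨⟨y.1, ?_⟩, (hφk _).2 y.2⟩, ?_, ?_⟩
    · show π y.1 ∈ ψ.range
      have h2 : π y.1 = 1 := y.2
      rw [h2]
      exact one_mem _
    · intro x
      rfl
    · intro y
      rfl
  · exact ⟨(QuotientGroup.quotientMulEquivOfEq hk.symm).trans
      (QuotientGroup.quotientKerEquivOfSurjective φ hφsurj)⟩

/-- The subgroup of the kernel of a map to a commutative group, for a perfect group in the quotient. -/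
theorem ext_of_det {G S A Γ : Type*} [Group G] [Group S] [CommGroup A] [Group Γ] (Z : Subgroup G) [Z.Normal]
    (dt : G →* A) (hZ : Z ≤ dt.ker) (hZc : Z ≤ center G) (ι : S →* G) (hι : Function.Injective ι)
    (hr : ∀ u, dt u = 1 → ∃ x, ι x = u) (ψ : Γ →* G ⧸ Z) (hψ : Function.Injective ψ)
    (hcen : center Γ = ⊥) (hperf : commutator Γ = ⊤) {k : ℕ} (hk : Nat.card Z = k) :
    ∃ H : Subgroup S, Nat.card (center H) = k ∧ Nonempty (H ⧸ center H ≃* Γ) := by
  classical
  let π : S →* G ⧸ Z := (QuotientGroup.mk' Z).comp ι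
  have hπ : ∀ x, x ∈ π.ker ↔ ι x ∈ Z := by
    intro x
    rw [MonoidHom.mem_ker]
    exact QuotientGroup.eq_one_iff _
  let dbar : G ⧸ Z →* A := QuotientGroup.lift Z dt hZ
  have hd : ∀ g, dbar (ψ g) = 1 := by
    intro g
    have h1 : commutator Γ ≤ (dbar.comp ψ).ker := Abelianization.commutator_subset_ker _
    have h2 : g ∈ (dbar.comp ψ).ker := h1 (by rw [hperf]; exact mem_top _)
    exact h2
  have hrange : ψ.range ≤ π.range := by
    rintro _ ⟨g, rfl⟩
    obtain ⟨u, hu⟩ := QuotientGroup.mk_surjective (ψ g)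
    have h1 : dt u = 1 := by
      have h2 := hd g
      rw [← hu] at h2
      rw [← h2]
      exact (QuotientGroup.lift_mk Z hZ u).symm
    obtain ⟨x, hx⟩ := hr u h1
    exact ⟨x, by rw [← hu, ← hx]; rfl⟩
  have hcent : π.ker ≤ center S := by
    intro x hx
    rw [mem_center_iff]
    intro y
    have h1 := mem_center_iff.1 (hZc ((hπ x).1 hx)) (ι y)
    apply hι
    rw [map_mul, map_mul]
    exact h1
  have hcard : Nat.card π.ker = k := by
    rw [← hk]
    refine Nat.card_congr (Equiv.ofBijective (fun x : π.ker => (⟨ι x.1, (hπ x.1).1 x.2⟩ : Z)) ⟨?_, ?_⟩)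
    · intro a b h
      apply Subtype.ext
      apply hι
      exact congrArg Subtype.val h
    · rintro ⟨z, hz⟩
      obtain ⟨x, rfl⟩ := hr z (hZ hz)
      exact ⟨⟨x, (hπ x).2 hz⟩, rfl⟩
  exact exists_section π ψ hψ hrange hcen hcent hcard

end Cfsg.Agent.Lib.Schur.ON45.Abs
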