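import Cfsg.Agent.Lib.DCE.MatP

/-!
# Products of matrices of size `45` over the field with seven elements, by the recursors
-/

set_option autoImplicit false
set_option maxRecDepth 100000

namespace Cfsg.Agent.Lib.Schur.ON45.Mat

open Cfsg.Agent.Lib.DCE.MatP

/-- The sum of multiples of rows, by the recursor. -/
noncomputable def addRowsG (B : List Nat) : Nat → Nat → Nat :=
  List.rec (fun _ acc => acc)
    (fun r _ ih a acc => ih (Nat.div a 65536) (Nat.add acc (Nat.mul (Nat.mod a 65536) r))) B

/-- The reduction of digits, by the recursor. -/
noncomputable def redG (n : Nat) : Nat → Nat :=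
  Nat.rec (fun _ => 0)
    (fun _ ih x => Nat.add (Nat.mod (Nat.mod x 65536) 7) (Nat.mul 65536 (ih (Nat.div x 65536)))) n

/-- The product of matrices, by the recursor. -/
noncomputable def mulG (A B : List Nat) : List Nat :=
  List.rec [] (fun a _ ih => List.cons (redG 45 (addRowsG B a 0)) ih) A

/-- The product of a word, by the recursor. -/
noncomputable def prodG (T : List (List Nat)) (acc : List Nat) (w : List Nat) : List Nat :=
  List.rec (fun acc => acc) (fun l _ ih acc => ih (mulG acc (T.getD l []))) w acc

theorem addRowsG_eq (B : List Nat) (a acc : Nat) : addRowsG B a acc = addRows B a acc := by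
  induction B generalizing a acc with
  | nil => rfl
  | cons r B ih => exact ih _ _

theorem redG_eq (n x : Nat) : redG n x = red 7 n x := by
  induction n generalizing x with
  | zero => rfl
  | succ n ih =>
    change Nat.add (Nat.mod (Nat.mod x 65536) 7) (Nat.mul 65536 (redG n (Nat.div x 65536))) = _
    rw [ih]
    rfl

theorem mulG_eq (A B : List Nat) : mulG A B = mulM 7 45 A B := by
  induction A with
  | nil => rfl
  | cons a A ih =>
    change List.cons (redG 45 (addRowsG B a 0)) (mulG A B) = _
    rw [ih, redG_eq, addRowsG_eq]
    rfl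

theorem prodG_eq (T : List (List Nat)) (w acc : List Nat) : prodG T acc w = prodW 7 45 T acc w := by
  induction w generalizing acc with
  | nil => rfl
  | cons l w ih =>
    change prodG T (mulG acc (T.getD l [])) w = _
    rw [ih, mulG_eq]
    rfl

/-- The rows of a scalar matrix. -/
def scalR (c : Nat) : List Nat := (List.range 45).map fun i => c * β ^ i

theorem D_scal (c i j : Nat) (hc : c < β) : D (c * β ^ i) j = if i = j then c else 0 := by
  rw [D_mul c _ j]
  · rw [D_pow]
    split_ifs <;> simp
  · intro s
    rw [D_pow]
    split_ifs <;> simpa using hc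

theorem toM_scalR (c : Nat) (hc : c < β) :
    toM 7 45 (scalR c) = Matrix.scalar (Fin 45) ((c : Nat) : ZMod 7) := by
  ext i j
  have hi : i.val < 45 := i.isLt
  have hget : (scalR c).getD i.val 0 = c * β ^ i.val := by
    simp [scalR, List.getD_eq_getElem?_getD, hi]
  simp only [toM]
  rw [hget, D_scal c _ _ hc, Matrix.scalar_apply, Matrix.diagonal_apply]
  by_cases h : i = j
  · subst h; simp
  · rw [if_neg h, if_neg (fun e => h (Fin.ext e))]
    simp

end Cfsg.Agent.Lib.Schur.ON45.Mat
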