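import Cfsg.Agent.Lib.TC.D.ONChain.Main
import Cfsg.Agent.Lib.TC.Iso
import Cfsg.Agent.Lib.Schur.ON45.Data
import Cfsg.Agent.Lib.Schur.ON45.Mat
import Cfsg.Agent.Lib.Schur.ON45.Abs
import Cfsg.Prelude.Def_Sporadic

/-!
# The triple cover of O'Nan's group in dimension `45` over the field with seven elements
-/

set_option autoImplicit false
set_option maxRecDepth 100000

namespace Cfsg.Agent.Lib.Schur.ON45.Main

open Cfsg.Agent.Lib.DCE.MatP Cfsg.Agent.Lib.Schur.ON45.Mat Cfsg.Agent.Lib.Schur.ON45.Data
  Cfsg.Agent.Lib.TC.Core Cfsg.Agent.Lib.TC.Pres Cfsg.Agent.Lib.TC.Iso Cfsg.Agent.Lib.TC.G.ON Subgroup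

instance fact7 : Fact (Nat.Prime 7) := ⟨by norm_num⟩

/-- The matrices. -/
abbrev MT : Type := Matrix (Fin 45) (Fin 45) (ZMod 7)

/-- The invertible matrices. -/
abbrev GLU : Type := MTˣ

/-- A column as a matrix. -/
def lm (c : Nat) : MT := toM 7 45 (T.getD c [])

theorem hgood : goodT 7 45 T = true := by decide +kernel

theorem hlen : T.length = 8 := by decide +kernel

theorem good_c (c : Nat) (hc : c < 8) : GoodM 7 45 (T.getD c []) := by
  apply goodM_of_goodB 7 45 (by norm_num)
  have h1 : T.getD c [] ∈ T := by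
    simp [List.getD_eq_getElem?_getD, hlen, hc]
  exact List.all_eq_true.mp hgood _ h1

theorem chkInv : ∀ c ∈ List.range 8, (mulG (T.getD c []) (T.getD (invF c) []) == idM 45) = true := by
  decide +kernel

theorem invF_invF : ∀ c ∈ List.range 8, invF (invF c) = c ∧ invF c < 8 := by decide

theorem lm_mul_inv (c : Nat) (hc : c < 8) : lm c * lm (invF c) = 1 := by
  have h := chkInv c (List.mem_range.2 hc)
  have h1 : mulM 7 45 (T.getD c []) (T.getD (invF c) []) = idM 45 := by
    rw [← mulG_eq]
    simpa using h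
  have h2 := toM_mulM 7 45 (by norm_num) (by norm_num) _ _ (good_c c hc)
    (good_c _ (invF_invF c (List.mem_range.2 hc)).2)
  rw [h1, toM_idM] at h2
  exact h2.symm

/-- A column as an invertible matrix. -/
def U (c : Nat) : GLU :=
  if h : c < 8 then
    ⟨lm c, lm (invF c), lm_mul_inv c h, by
      have h1 := lm_mul_inv (invF c) (invF_invF c (List.mem_range.2 h)).2
      rwa [(invF_invF c (List.mem_range.2 h)).1] at h1⟩
  else 1

theorem U_val {c : Nat} (h : c < 8) : (U c).val = lm c := by
  rw [U, dif_pos h]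

theorem U_inv (c : Nat) (hc : c < 8) : U (invF c) = (U c)⁻¹ := by
  apply Units.ext
  rw [U_val (invF_invF c (List.mem_range.2 hc)).2, U, dif_pos hc]
  rfl

theorem val_prodA (l : List Nat) (hl : ∀ z ∈ l, z < 8) : (prodA U l).val = (l.reverse.map lm).prod := by
  induction l with
  | nil => rfl
  | cons z l ih =>
    rw [prodA_cons, Units.val_mul, ih (fun y hy => hl y (by simp [hy])), U_val (hl z (by simp)),
      List.reverse_cons, List.map_append, List.prod_append]
    simp

/-! ### The scalars -/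

/-- The scalar matrices as units. -/
noncomputable def sc : (ZMod 7)ˣ →* GLU := Units.map (Matrix.scalar (Fin 45)).toMonoidHom

theorem sc_val (x : (ZMod 7)ˣ) : (sc x).val = Matrix.scalar (Fin 45) (x : ZMod 7) := rfl

/-- The primitive cube root of unity. -/
def om : (ZMod 7)ˣ := ⟨2, 4, by decide, by decide⟩

theorem om_pow : om ^ 3 = 1 := by decide

theorem om_ne : om ≠ 1 := by decide

theorem orderOf_om : orderOf om = 3 := orderOf_eq_prime om_pow om_ne

/-- The central subgroup of the scalars of order three. -/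
noncomputable def Z : Subgroup GLU := (zpowers om).map sc

theorem sc_comm (x : (ZMod 7)ˣ) (g : GLU) : sc x * g = g * sc x := by
  apply Units.ext
  rw [Units.val_mul, Units.val_mul, sc_val]
  exact (Matrix.scalar_commute _ (fun r => Commute.all _ r) _).eq

theorem Z_le_center : Z ≤ center GLU := by
  rintro _ ⟨x, -, rfl⟩
  rw [mem_center_iff]
  intro g
  exact (sc_comm x g).symm

instance Z_normal : Z.Normal := ⟨fun n hn g => by
  have h := mem_center_iff.1 (Z_le_center hn) g
  rw [h, mul_inv_cancel_right]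
  exact hn⟩

/-- The quotient by the scalars. -/
abbrev Q : Type := GLU ⧸ Z

theorem om_pow_eq (k : ℕ) : ((om ^ k : (ZMod 7)ˣ) : ZMod 7) = (2 : ZMod 7) ^ k := by
  rw [Units.val_pow_eq_pow_val]
  rfl

theorem sc_inj : Function.Injective sc := by
  intro x y h
  have h1 := congrArg (fun g : GLU => g.val (0 : Fin 45) (0 : Fin 45)) h
  simp only [sc_val, Matrix.scalar_apply, Matrix.diagonal_apply_eq] at h1
  exact Units.ext h1

theorem card_Z : Nat.card Z = 3 := by
  rw [Z, Subgroup.card_map_of_injective sc_inj, Nat.card_zpowers, orderOf_om]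

/-! ### The relators -/

/-- The check of a relator. -/
noncomputable def chkRel (w : List Nat) : Bool :=
  (w.all fun c => Nat.blt c 8) &&
    (let x := prodG T (idM 45) w.reverse
     (x == scalR 1) || (x == scalR 2) || (x == scalR 4))

theorem rels_ok : rels.all chkRel = true := by decide +kernel

theorem mem_Z_of_scal (c : Nat) (hc : c = 1 ∨ c = 2 ∨ c = 4) (g : GLU) (h : g.val = toM 7 45 (scalR c)) : g ∈ Z := by
  have hcβ : c < β := by
    rcases hc with rfl | rfl | rfl <;> norm_num
  rw [toM_scalR c hcβ] at h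
  obtain ⟨k, hk⟩ : ∃ k : ℕ, ((c : Nat) : ZMod 7) = ((om ^ k : (ZMod 7)ˣ) : ZMod 7) := by
    rcases hc with rfl | rfl | rfl
    · exact ⟨0, by decide⟩
    · exact ⟨1, by decide⟩
    · exact ⟨2, by decide⟩
  refine ⟨om ^ k, pow_mem (mem_zpowers om) k, ?_⟩
  apply Units.ext
  rw [sc_val, h, hk]

theorem prodA_mem_Z (w : List Nat) (hw : w ∈ rels) : prodA U w ∈ Z := by
  have h := List.all_eq_true.mp rels_ok w hw
  simp only [chkRel, Bool.and_eq_true, List.all_eq_true, Nat.blt_eq, Bool.or_eq_true, beq_iff_eq, prodG_eq] at h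
  obtain ⟨h1, h2⟩ := h
  have hlt : ∀ z ∈ w.reverse, z < T.length := fun z hz => by
    rw [hlen]
    exact h1 z (List.mem_reverse.1 hz)
  have h3 : toM 7 45 (prodW 7 45 T (idM 45) w.reverse) = (w.reverse.map lm).prod := by
    rw [toM_prodW 7 45 (by norm_num) (by norm_num) T hgood _ hlt _ (goodM_idM 7 45 (by norm_num)), toM_idM, one_mul]
    rfl
  have h4 : (prodA U w).val = toM 7 45 (prodW 7 45 T (idM 45) w.reverse) := by
    rw [val_prodA w h1, h3]
  rcases h2 with (h2 | h2) | h2
  · exact mem_Z_of_scal 1 (Or.inl rfl) _ (by rw [h4, h2])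
  · exact mem_Z_of_scal 2 (Or.inr (Or.inl rfl)) _ (by rw [h4, h2])
  · exact mem_Z_of_scal 4 (Or.inr (Or.inr rfl)) _ (by rw [h4, h2])

/-- The letters in the quotient. -/
noncomputable def F (c : Nat) : Q := QuotientGroup.mk (U c)

theorem prodA_F (l : List Nat) : prodA F l = QuotientGroup.mk (prodA U l) := by
  induction l with
  | nil => rfl
  | cons z l ih =>
    rw [prodA_cons, prodA_cons, ih]
    rfl

theorem exists_psi : ∃ ψ : PresentedGroup Rel →* Q, ∀ c, c < 8 → ψ (K.E Rel c) = F c :=
  exists_hom_of_letters (K := K) (R := Rel) (rels := rels) valid hR F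
    (fun c hc => by
      show QuotientGroup.mk (U (invF c)) = _
      rw [U_inv c hc]
      rfl)
    (fun l hl => by
      rw [prodA_F]
      exact (QuotientGroup.eq_one_iff _).2 (prodA_mem_Z l hl))

/-! ### The subgroup of the special linear group -/

/-- The group. -/
abbrev GG : Type := PresentedGroup Rel

/-- The homomorphism to the quotient by the scalars. -/
noncomputable def psi : GG →* Q := Classical.choose exists_psi

theorem psi_E : ∀ c, c < 8 → psi (K.E Rel c) = F c := Classical.choose_spec exists_psi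

theorem simple_GG : IsSimpleGroup GG := Cfsg.Agent.Lib.TC.D.ONChain.Main.simple_card.1

theorem card_GG : Nat.card GG = 460815505920 := Cfsg.Agent.Lib.TC.D.ONChain.Main.simple_card.2

theorem entry : lm 2 (0 : Fin 45) (1 : Fin 45) = 2 := by decide +kernel

theorem psi_inj : Function.Injective psi := by
  have hs := simple_GG
  rw [← MonoidHom.ker_eq_bot_iff]
  rcases IsSimpleGroup.eq_bot_or_eq_top_of_normal psi.ker (MonoidHom.normal_ker psi) with h | h
  · exact h
  · exfalso
    have h1 : psi (K.E Rel 2) = 1 := by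
      have h0 : K.E Rel 2 ∈ psi.ker := by
        rw [h]
        exact mem_top _
      exact h0
    rw [psi_E 2 (by norm_num)] at h1
    have h2 : U 2 ∈ Z := (QuotientGroup.eq_one_iff _).1 h1
    obtain ⟨x, -, hx⟩ := h2
    have h3 := congrArg (fun g : GLU => g.val (0 : Fin 45) (1 : Fin 45)) hx
    simp only [sc_val, Matrix.scalar_apply] at h3
    rw [Matrix.diagonal_apply_ne _ (by decide), U_val (by norm_num), entry] at h3
    exact absurd h3 (by decide)

theorem finite_GG : Finite GG := Nat.finite_of_card_ne_zero (by rw [card_GG]; norm_num)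

theorem not_prime_card : ¬ (Nat.card GG).Prime := by
  rw [card_GG]
  norm_num

theorem center_GG : center GG = ⊥ := by
  have := simple_GG
  have := finite_GG
  exact (Cfsg.Agent.Lib.Schur.ON45.Abs.center_bot_and_perfect not_prime_card).1

theorem perfect_GG : commutator GG = ⊤ := by
  have := simple_GG
  have := finite_GG
  exact (Cfsg.Agent.Lib.Schur.ON45.Abs.center_bot_and_perfect not_prime_card).2

/-- The determinant. -/
noncomputable def dt : GLU →* (ZMod 7)ˣ := Matrix.GeneralLinearGroup.det

theorem dt_val (u : GLU) : ((dt u : (ZMod 7)ˣ) : ZMod 7) = u.val.det :=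
  Matrix.GeneralLinearGroup.val_det_apply u

theorem det_sc (x : (ZMod 7)ˣ) (hx : x ∈ zpowers om) : dt (sc x) = 1 := by
  have h3 : x ^ 3 = 1 := by
    obtain ⟨k, rfl⟩ := hx
    show (om ^ k) ^ 3 = 1
    rw [← zpow_natCast, zpow_comm, zpow_natCast, om_pow, one_zpow]
  apply Units.ext
  rw [dt_val, sc_val, Matrix.scalar_apply, Matrix.det_diagonal, Finset.prod_const, Finset.card_univ, Fintype.card_fin]
  have h4 : (x : ZMod 7) ^ 3 = 1 := by
    rw [← Units.val_pow_eq_pow_val, h3]
    exact Units.val_one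
  have h5 : (x : ZMod 7) ^ 45 = ((x : ZMod 7) ^ 3) ^ 15 := by ring
  rw [h5, h4, one_pow]
  exact Units.val_one.symm

theorem Z_le_ker : Z ≤ dt.ker := by
  rintro _ ⟨x, hx, rfl⟩
  exact det_sc x hx

/-- The special linear group. -/
abbrev SS : Type := Matrix.SpecialLinearGroup (Fin 45) (ZMod 7)

theorem toGL_inj : Function.Injective (Matrix.SpecialLinearGroup.toGL : SS →* GLU) := by
  intro x y h
  exact Subtype.ext (congrArg Units.val h)

theorem toGL_surj (u : GLU) (h : dt u = 1) : ∃ x : SS, Matrix.SpecialLinearGroup.toGL x = u := by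
  have h2 : u.val.det = 1 := by
    rw [← dt_val, h]
    exact Units.val_one
  exact ⟨⟨u.val, h2⟩, Units.ext (Matrix.SpecialLinearGroup.coe_GL_coe_matrix _)⟩

theorem main : ∃ H : Subgroup SS, Nat.card (center H) = 3 ∧ Cfsg.IsON (H ⧸ center H) := by
  obtain ⟨H, h1, ⟨e⟩⟩ := Cfsg.Agent.Lib.Schur.ON45.Abs.ext_of_det Z dt Z_le_ker Z_le_center
    Matrix.SpecialLinearGroup.toGL toGL_inj toGL_surj psi psi_inj center_GG perfect_GG card_Z
  refine ⟨H, h1, ?_, ?_⟩
  · have := simple_GG
    exact e.isSimpleGroup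
  · rw [Nat.card_congr e.toEquiv, card_GG]

end Cfsg.Agent.Lib.Schur.ON45.Main
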